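import Cfsg.Agent.Lib.SporPres.JankoThree.S12Tab

/-! # Generated coset enumeration data: S12 -/

set_option autoImplicit false

namespace Cfsg.Agent.Lib.SporPres.JankoThree.S12

open Cfsg.Agent.Lib.Coset

/-- Packed derivations. -/
def proofsB0 : List ℕ := [
  0,
  0,
  0,
  0,
  0,
  0,
  0,
  0,
  0,
  0,
  0,
  0x20000400006000080000a0000b00009000070000500003000010180000000000]

theorem proofsB0_ok : cert.blockOK 0 proofsB0 = true := by decide +kernel

theorem proofsB0_len : proofsB0.length = 12 := by decide +kernel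

/-- Packed derivations. -/
def proofsE0 : List ℕ := [
  0x1,
  0x2,
  0x1,
  0x3,
  0x4,
  0x2,
  0x5,
  0x3,
  0x4,
  0x6,
  0x5,
  0x7,
  0x8,
  0x6,
  0x9,
  0x7,
  0x8,
  0xa,
  0x9,
  0xb,
  0xc,
  0xa,
  0xc,
  0xb]

theorem proofsE0_ok : cert.edgesOK tab ord 0 proofsE0 = true := by decide +kernel

theorem proofsE0_len : proofsE0.length = 24 := by decide +kernel

end Cfsg.Agent.Lib.SporPres.JankoThree.S12
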